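import Cfsg.Agent.H7.R3D
import Cfsg.Agent.H7.R3M
import Cfsg.Agent.H6.MRep
import Cfsg.Agent.H6.Ab

/-! General tools for the rank 3 recognitions. -/

set_option autoImplicit false

open MulAction Finset

namespace Cfsg.H7.R3.Q

open H6

theorem iso_of_aut2 {X Ω V : Type*} [Group X] [Finite X] [Finite V] [MulAction X V]
    [FaithfulSMul X V] (h2 : ∀ L : Subgroup X, L.index ≠ 2) (adj : V → V → Prop)
    (hX : ∀ (g : X) u v, adj (g • u) (g • v) ↔ adj u v) (hA : Nat.card (Aut adj) ≤ 2 * Nat.card X)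
    (G : Subgroup (Equiv.Perm Ω)) (r : Ω → Ω → Prop) (hG : G ≤ Aut r) (e : Ω ≃ V)
    (he : ∀ u v, r u v ↔ adj (e u) (e v)) (hc : Nat.card G = Nat.card X) :
    Nonempty (G ≃* X) := by
  let π := e.permCongrHom
  have hG' : G.map π.toMonoidHom ≤ Aut adj := by
    rintro _ ⟨g, hg, rfl⟩ u v
    obtain ⟨u, rfl⟩ := e.surjective u
    obtain ⟨v, rfl⟩ := e.surjective v
    have := hG hg u v
    rw [he, he] at this
    simpa [π] using this
  have hc' : Nat.card (G.map π.toMonoidHom) = Nat.card X := by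
    rw [← hc]; exact Subgroup.card_map_of_injective π.injective
  suffices Nonempty (G.map π.toMonoidHom ≃* X) from this.map (π.subgroupMap G).trans
  generalize G.map π.toMonoidHom = G' at hG' hc'
  let ψ := toPermHom X V
  have inj : Function.Injective ψ := toPerm_injective
  have hY : ψ.range ≤ Aut adj := by rintro _ ⟨g, rfl⟩; exact hX g
  have a : G'.relIndex (Aut adj) * Nat.card X = Nat.card (Aut adj) := by
    rw [← hc', ← Nat.card_congr (Subgroup.subgroupOfEquivOfLe hG').toEquiv]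
    exact Subgroup.index_mul_card _
  have a0 : G'.relIndex (Aut adj) ≠ 0 := Subgroup.index_ne_zero_of_finite
  have p0 : 0 < Nat.card X := Nat.card_pos
  have b : (G'.comap ψ).index ≤ 2 := by
    rw [Subgroup.index_comap]
    exact (Subgroup.relIndex_le_of_le_right hY a0).trans (by nlinarith)
  have b0 : (G'.comap ψ).index ≠ 0 := Subgroup.index_ne_zero_of_finite
  have c : G'.comap ψ = ⊤ := Subgroup.index_eq_one.1 (by have := h2 (G'.comap ψ); omega)
  have d : ψ.range ≤ G' := by rintro _ ⟨g, rfl⟩; exact (c.ge trivial : g ∈ G'.comap ψ)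
  have e : ψ.range = G' := Subgroup.eq_of_le_of_card_ge d
    (by rw [hc', Nat.card_congr (MonoidHom.ofInjective inj).toEquiv])
  exact ⟨(MulEquiv.subgroupCongr e.symm).trans (MonoidHom.ofInjective inj).symm⟩

section lab

variable {Λ : Type*} {X : Subgroup (Equiv.Perm Λ)} {z : ℕ → Λ} {n : ℕ}

/-- The action on the labels of an invariant finite set. -/
theorem exists_lab (inj : ∀ p < n, ∀ q < n, z p = z q → p = q)
    (cl : ∀ g ∈ X, ∀ p < n, ∃ q < n, g (z p) = z q) :
    ∃ φ : X →* Equiv.Perm ℕ, ∀ g : X, ∀ p < n, φ g p < n ∧ g.1 (z p) = z (φ g p) := by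
  have k : ∀ (g : X) (p : Fin n), ∃ q : Fin n, g.1 (z p) = z q := fun g p => by
    obtain ⟨q, h, e⟩ := cl g g.2 p p.2
    exact ⟨⟨q, h⟩, e⟩
  choose f hf using k
  have i : ∀ p q : Fin n, z p = z q → p = q := fun p q e => Fin.ext (inj _ p.2 _ q.2 e)
  letI : MulAction X (Fin n) :=
    { smul := f
      one_smul := fun p => i _ _ (hf 1 p).symm
      mul_smul := fun g h p => i _ _ ((hf _ p).symm.trans (by
        show g.1 (h.1 (z p)) = z (f g (f h p))
        rw [hf, hf])) }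
  refine ⟨(Equiv.Perm.viaEmbeddingHom Fin.valEmbedding).comp (toPermHom X (Fin n)),
    fun g p hp => ?_⟩
  have e : (Equiv.Perm.viaEmbeddingHom Fin.valEmbedding).comp (toPermHom X (Fin n)) g p =
      (f g ⟨p, hp⟩).1 := Equiv.Perm.viaEmbedding_apply _ Fin.valEmbedding ⟨p, hp⟩
  rw [e]
  exact ⟨(f g _).2, hf g ⟨p, hp⟩⟩

theorem isAct_of_lab {φ : X →* Equiv.Perm ℕ}
    (hφ : ∀ g : X, ∀ p < n, φ g p < n ∧ g.1 (z p) = z (φ g p)) {ev : ℕ → Equiv.Perm Λ}
    {img : ℕ → ℕ → ℕ} {N m : ℕ} (lab : Lab (MonoidHom.id _) ev z img N m) (hn : n ≤ N)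
    {σ : List (List ℕ)} (hσ : σ.all (inR m) = true) (hK : ∀ l, evS ev σ l ∈ X) :
    IsAct φ (evSub (evS ev σ) X hK) (fun x p => trF img (σ.getD x []) p) n σ.length := by
  intro x _ h2 p hp
  have a : σ.getD x [] ∈ σ := by
    rw [List.getD_eq_getElem _ _ h2]; exact List.getElem_mem _
  obtain ⟨b, c⟩ := lab.tr (List.all_eq_true.1 hσ _ a) (p := p) (by omega)
  obtain ⟨d, e⟩ := hφ (evSub (evS ev σ) X hK x)⁻¹ p hp
  rw [map_inv] at d e
  have f := lab.inj _ (by omega) _ c (e.symm.trans b)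
  exact ⟨f, f.symm.trans_lt d⟩

end lab

section act

variable {X : Type*} [Group X] {φ : X →* Equiv.Perm ℕ} {ev : ℕ → X} {img : ℕ → ℕ → ℕ} {n m : ℕ}

theorem orb_eq {K : Subgroup X} {b lo hi : ℕ} (h1 : ∀ g ∈ K, lo ≤ φ g b ∧ φ g b < hi)
    (h2 : OrbGe φ K b (hi - lo)) : orb φ K b = Set.Ico lo hi := by
  have s : orb φ K b ⊆ Set.Ico lo hi := by
    rintro _ ⟨g, hg, rfl⟩
    rw [← map_inv]
    exact h1 _ (inv_mem hg)
  refine Set.eq_of_subset_of_ncard_le s ?_ (Set.finite_Ico _ _)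
  rw [← coe_Ico, Set.ncard_coe_finset, Nat.card_Ico]
  exact h2.le_ncard ((Set.finite_Ico _ _).subset s)

theorem og (ha : IsAct φ ev img n m) {bs : List ℕ} {b k U : ℕ} {W : List (List ℕ)}
    (hb : ltB n bs = true) (h : lvlChk img n m bs (b, W, unp k U) = true) :
    OrbGe φ (⊤ ⊓ fixS φ bs) b (k + 1) := by
  simpa only [length_unp] using (lvl_sound ha (K := ⊤) (ltB_spec hb) (L := (b, W, unp k U))
    (fun _ _ => trivial) h).2

variable [MulAction X (Fin n)] (hφ : ∀ (g : X) (p : Fin n), (g • p).1 = φ g p)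
include hφ

theorem orbGe_le2 {o p t x : Fin n} {M : ℕ}
    (h : OrbGe φ (⊤ ⊓ fixS φ [t.1, p.1, o.1]) x.1 M) :
    M ≤ (orbit (stabilizer (stabilizer X o) t ⊓ stabilizer (stabilizer X o) p :
      Subgroup (stabilizer X o)) x).ncard := by
  obtain ⟨S, h1, h2⟩ := h
  rw [← Set.ncard_image_of_injective _ Fin.val_injective]
  refine h1.trans ((Set.ncard_coe_finset S).ge.trans (Set.ncard_le_ncard (fun y hy => ?_)
    ((Set.toFinite _).image _)))
  obtain ⟨g, hg, rfl⟩ := h2 y hy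
  have a := mem_fixS'.1 hg.2
  refine ⟨_, ⟨⟨⟨g⁻¹, Fin.ext ?_⟩, Fin.ext ?_, Fin.ext ?_⟩, rfl⟩, ?_⟩
  · rw [hφ, map_inv]; exact a _ (by simp)
  · exact (hφ g⁻¹ t).trans (by rw [map_inv]; exact a _ (by simp))
  · exact (hφ g⁻¹ p).trans (by rw [map_inv]; exact a _ (by simp))
  · exact (hφ g⁻¹ x).trans (by rw [map_inv])

theorem rows_sound (ha : IsAct φ ev img n m) {adj : Fin n → Fin n → Prop}
    (inv : ∀ (g : X) u v, adj (g • u) (g • v) ↔ adj u v) {D : ℕ} (h0 : Row adj 0 D)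
    {W : List (List ℕ)} {R : ℕ → ℕ}
    (h : allR (fun u => rowChk img n m D (nthW W u) u (R u)) 0 n = true) (u : ℕ) (hu : u < n) :
    Row adj u (R u) := row_sound hφ ha inv h0 (allR_spec h u (Nat.zero_le _) (by omega))

end act

section pairs

variable {H α : Type*} [Group H] [MulAction H α] [DecidableEq α]

theorem Inv_offDiag {L : Subgroup H} {E : Finset α} (h : Inv L E) : Inv L E.offDiag :=
  fun g hg x hx => by
    rw [mem_offDiag] at hx ⊢
    exact ⟨h g hg _ hx.1, h g hg _ hx.2.1, fun e => hx.2.2 (MulAction.injective g e)⟩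

theorem Inv_erase {L : Subgroup H} {E : Finset α} (h : Inv L E) {p : α}
    (hp : L ≤ stabilizer H p) : Inv L (E.erase p) := fun g hg v hv => mem_erase.2
  ⟨fun e => (mem_erase.1 hv).1 (MulAction.injective g (e.trans (hp hg).symm)),
    h g hg v (mem_erase.1 hv).2⟩

omit [DecidableEq α] in
theorem ncard_pair (J : Subgroup H) (t u : α) : (orbit J (t, u)).ncard =
    (orbit (stabilizer H t ⊓ J : Subgroup H) u).ncard * (orbit J t).ncard := by
  rw [ncard_orbit, ncard_orbit, ncard_orbit, Subgroup.relIndex_inf_mul_relIndex]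
  congr 1
  ext g
  simp [Prod.ext_iff, and_comm]

end pairs

end Cfsg.H7.R3.Q
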