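import Cfsg.Agent.H6.R3.G
import Cfsg.Agent.H6.PG

/-! Homomorphisms from a common action on labels; sums over orbits. -/

set_option autoImplicit false

open Finset

namespace Cfsg.H7.R3.Q

open H6

theorem hom_of_lab {Y H Λ : Type*} [Group Y] [Group H] {ψ : Y →* Equiv.Perm Λ} {evY : ℕ → Y}
    {z : ℕ → Λ} {img : ℕ → ℕ → ℕ} {n m : ℕ} (lab : Lab ψ evY z img n m) {X : List (List ℕ)}
    (hX : gen evY X = ⊤) (hm : X.all (inR m) = true) {φ : H →* Equiv.Perm ℕ} {evH : ℕ → H}
    (ha : IsAct φ evH img n m) (lt : ∀ h, ∀ p < n, φ h p < n)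
    (ff : ∀ h, (∀ p < n, φ h p = p) → h = 1) :
    ∃ π : Y →* H, (∀ w, inR m w = true → π (evL evY w) = evL evH w) ∧
      ∀ y, ∀ p < n, ψ y (z p) = z (φ (π y) p) := by
  let P : Y → H → Prop := fun y h => ∀ p < n, ψ y (z p) = z (φ h p)
  have mul : ∀ {y h y' h'}, P y h → P y' h' → P (y * y') (h * h') := fun a b p hp => by
    rw [map_mul, map_mul, Equiv.Perm.mul_apply, Equiv.Perm.mul_apply, b p hp, a _ (lt _ p hp)]
  have inv : ∀ {y h}, P y h → P y⁻¹ h⁻¹ := fun {y h} a p hp => by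
    rw [map_inv, Equiv.Perm.inv_eq_iff_eq, a _ (lt _ p hp), map_inv]
    simp
  have wd : ∀ w, inR m w = true → P (evL evY w) (evL evH w) := fun w hw => by
    have : P (evL evY w)⁻¹ (evL evH w)⁻¹ := fun p hp => by
      rw [map_inv, map_inv, (lab.tr hw hp).1, (ha.trF hw hp).1]
    simpa using inv this
  have un : ∀ {y h h'}, P y h → P y h' → h = h' := fun {y h h'} a b => by
    rw [← mul_inv_eq_one]
    refine ff _ fun p hp => lab.inj _ (lt _ p hp) _ hp ?_
    rw [← mul a (inv b) p hp]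
    simp
  let K : Subgroup Y :=
    { carrier := {y | ∃ h, P y h}
      one_mem' := ⟨1, fun p _ => by simp⟩
      mul_mem' := fun ⟨_, a⟩ ⟨_, b⟩ => ⟨_, mul a b⟩
      inv_mem' := fun ⟨_, a⟩ => ⟨_, inv a⟩ }
  have k : ∀ y, ∃ h, P y h := fun y => (gen_le (K := K) fun w hw =>
    ⟨_, wd w (List.all_eq_true.1 hm w hw)⟩) (hX.ge trivial)
  choose f hf using k
  exact ⟨MonoidHom.mk' f fun a b => un (hf _) (mul (hf a) (hf b)),
    fun w hw => un (hf _) (wd w hw), hf⟩

/-- The action on subsets. -/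
def setAct {G V : Type*} [Group G] (a : G →* Equiv.Perm V) : G →* Equiv.Perm (Set V) where
  toFun g :=
    { toFun := fun S => a g⁻¹ ⁻¹' S
      invFun := fun S => a g ⁻¹' S
      left_inv := fun S => by ext v; simp
      right_inv := fun S => by ext v; simp }
  map_one' := by ext S v; simp
  map_mul' g h := by ext S v; simp

theorem setAct_inv {G V : Type*} [Group G] (a : G →* Equiv.Perm V) (g : G) (S : Set V) :
    (setAct a g)⁻¹ S = a g ⁻¹' S := rfl

/-- The sum of `N j` over the bits `j < k` of `v`. -/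
noncomputable def sv (N : ℕ → ℕ) (v k : ℕ) : ℕ :=
  @Nat.rec (fun _ => ℕ) (nat_lit 0)
    (fun j acc => @Bool.rec (fun _ => ℕ) acc (Nat.add (N j) acc) (bit v j)) k

theorem sv_eq (N : ℕ → ℕ) (v k : ℕ) :
    sv N v k = ∑ j ∈ range k, if bit v j then N j else 0 := by
  induction k with
  | zero => rfl
  | succ k ih =>
    rw [sum_range_succ, ← ih]
    show @Bool.rec (fun _ => ℕ) (sv N v k) (N k + sv N v k) (bit v k) = _
    cases bit v k <;> simp [add_comm]

theorem cnt_sv {F : ℕ → Bool} {oi N : ℕ → ℕ} {n k : ℕ} (h : ∀ t < n, oi t < k)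
    (hN : ∀ j < k, cnt (fun t => F t && Nat.beq (oi t) j) n = N j) (v : ℕ) :
    cnt (fun t => F t && bit v (oi t)) n = sv N v k := by
  have e : ∀ j ∈ range k, (if bit v j then N j else 0) = ∑ t ∈ range n,
      if bit v j then (if (F t && Nat.beq (oi t) j) then 1 else 0) else 0 := fun j hj => by
    rw [← hN j (mem_range.1 hj), cnt_eq]
    split_ifs <;> simp
  rw [sv_eq, cnt_eq, sum_congr rfl e]
  rw [sum_comm]
  refine sum_congr rfl fun t ht => ?_
  rw [sum_eq_single (oi t) (fun j _ e => by simp [e.symm])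
    fun e => absurd (mem_range.2 (h t (mem_range.1 ht))) e]
  cases F t <;> cases bit v (oi t) <;> simp

end Cfsg.H7.R3.Q
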