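import Cfsg.Agent.H6.R3.G

/-! The Higman–Sims graph is determined by the stabiliser of a vertex. -/

set_option autoImplicit false

open MulAction Finset

namespace Cfsg.H7.R3.Q

variable {H Ω V : Type*} [Group H] [MulAction H Ω] [MulAction H V] [DecidableEq V] [DecidableEq Ω]

theorem arH : ∀ s < 23, 1 ≤ s → ¬ 3 ∣ s → s ∣ 20160 → 21 ∣ s * (s - 1) →
    420 ∣ s * ((s - 1) * (s - 1) - (s - 1)) → s = 1 := by
  intro s h
  interval_cases s <;> decide

theorem lam0 {r : Ω → Ω → Prop} [DecidableRel r] {a b c : Ω} {D' S' : Finset Ω}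
    (w : OM H r a b c D' S' 22 77) {p : V} {D : Finset V}
    (a1 : IsO (stabilizer H p) (D.erase p) 21) (sb : stabilizer H b = stabilizer H p) {f : Ω → V}
    (ef : Eqv H f b p D' D) :
    (∀ v ∈ D', ¬ r b v) ∧ (D'.filter (r c)).card = 6 ∧ (S'.filter (r c)).card = 16 := by
  have bD := (w.mD b).2 (mem_orbit_self b)
  have cS := (w.mS c).2 (mem_orbit_self c)
  obtain ⟨E, e1, e2, e3, e4⟩ := ef.img _ _ (w.stab b)
  have pE : p ∉ E := fun i => w.irr b ((e4 b bD).1 (ef.base ▸ i))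
  rw [sb] at e3
  have d1 := a1.dvd le_rfl e3
  have l1 := a1.le E
  rw [inter_eq_left.2 (subset_erase.2 ⟨e1, pE⟩), e2] at d1 l1
  rw [Subgroup.relIndex_self, one_mul] at d1
  have n1 := w.lam b bD
  have n2 := w.rD b bD
  have n3 := w.rS c cS
  have n4 := w.count
  have z : (D'.filter (r b)).card = 0 := by omega
  exact ⟨filter_eq_empty_iff.1 (card_eq_zero.1 z), by omega, by omega⟩

/-- What is used of the Higman–Sims graph. -/
structure HM (H : Type*) [Group H] [MulAction H V] (adj : V → V → Prop) [DecidableRel adj]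
    (o p q : V) (D S : Finset V) : Prop where
  om : OM H adj o p q D S 22 77
  card : Nat.card H = 443520
  a1 : IsO (stabilizer H p) (D.erase p) 21
  a2 : IsO (stabilizer H p) (D.erase p).offDiag 420
  b2 : IsO (stabilizer H q) (D.filter fun v => ¬ adj q v) 16
  c2 : IsO (stabilizer H q) (S.filter fun v => ¬ adj q v ∧ v ≠ q) 60
  nu2 : ∀ v ∈ S, (∀ x ∈ D, adj q x → adj v x) → v = q

variable {adj : V → V → Prop} [DecidableRel adj] {o p q : V} {D S : Finset V}

theorem HM.stepB (m : HM H adj o p q D S) (K : Subgroup H) (hK : K.index = 22)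
    (h3 : ¬ 3 ∣ (stabilizer H p).relIndex K) : K = stabilizer H p := by
  obtain ⟨T, hT, pT, iT, cT, -⟩ := exists_orbF K m.om.mD
  have ip := (index_stab m.om.mD).trans m.om.cD
  have i0 : (stabilizer H p).index ≠ 0 := by rw [ip]; norm_num
  have r := relIndex_symm (hK.trans ip.symm) i0
  have iT' := Inv_erase (iT.mono (inf_le_left : K ⊓ stabilizer H p ≤ K)) inf_le_right
  have d1 := m.a1.dvd inf_le_right iT'
  have d2 := m.a2.dvd inf_le_right (Inv_offDiag iT')
  have s := erase_subset_erase p hT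
  rw [inter_eq_left.2 s] at d1
  rw [inter_eq_left.2 (offDiag_mono s), offDiag_card] at d2
  have cK := K.index_mul_card
  have dK : (stabilizer H p).relIndex K ∣ Nat.card K := Subgroup.index_dvd_card _
  rw [hK, m.card] at cK
  rw [show Nat.card K = 20160 by omega] at dK
  rw [r, card_erase_of_mem pT, cT] at d1 d2
  have l := card_le_card hT
  have l' := card_pos.2 ⟨p, pT⟩
  rw [m.om.cD] at l
  rw [cT] at l l'
  exact eq_of_le_index (Subgroup.relIndex_eq_one.1 (arH _ (by omega) l' h3 dK d1 d2))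
    (hK.trans ip.symm) i0

theorem HM.graph [Fintype Ω] [Fintype V] (hc : Fintype.card Ω = Fintype.card V)
    (m : HM H adj o p q D S) {r : Ω → Ω → Prop} [DecidableRel r] {a b c : Ω} {D' S' : Finset Ω}
    (w : OM H r a b c D' S' 22 77) : ∃ e : Ω ≃ V, ∀ u v, r u v ↔ adj (e u) (e v) := by
  obtain ⟨g, hg⟩ := exists_move 3 b m.om.mD (by rw [m.om.cD]; norm_num)
  obtain ⟨h, hh⟩ := exists_move 2 c m.om.mS (by rw [m.om.cS]; norm_num)
  replace w := w.move g h
  generalize g • b = b at w hg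
  generalize h • c = c at w hh
  have cS := (w.mS c).2 (mem_orbit_self c)
  have qS := (m.om.mS q).2 (mem_orbit_self q)
  have sb := m.stepB _ ((index_stab w.mD).trans w.cD) hg
  obtain ⟨f, f1, f2⟩ := exists_eqv sb
  have ef : Eqv H f b p D' D := ⟨f1, f2, w.mD, m.om.mD⟩
  obtain ⟨x1, x2, x3⟩ := lam0 w m.a1 sb ef
  obtain ⟨y1, y2, y3⟩ := lam0 (f := id) m.om m.a1 rfl
    ⟨fun _ => rfl, Set.injOn_id _, m.om.mD, m.om.mD⟩
  obtain ⟨M, m1, m2, m3, m4⟩ := ef.img _ _ (w.stab c)
  have iq := (index_stab m.om.mS).trans m.om.cS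
  have ic := (index_stab w.mS).trans w.cS
  have i0 : (stabilizer H q).index ≠ 0 := by rw [iq]; norm_num
  have d := m.b2.dvd inf_le_right (m3.mono (inf_le_left : stabilizer H c ⊓ _ ≤ _))
  rw [relIndex_symm (ic.trans iq.symm) i0] at d
  have d' := (Nat.Coprime.pow_left 4 ((Nat.Prime.coprime_iff_not_dvd Nat.prime_two).2
    hh)).dvd_of_dvd_mul_left d
  have l := card_le_card (inter_subset_left (s₁ := M) (s₂ := D.filter fun v => ¬ adj q v))
  have z := card_eq_zero.1 (Nat.eq_zero_of_dvd_of_lt d' (by omega))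
  have eM : M = D.filter (adj q) := eq_of_subset_of_card_le (fun v hv => mem_filter.2
    ⟨m1 hv, by_contra fun i => notMem_empty v (z ▸ mem_inter.2 ⟨hv, mem_filter.2 ⟨m1 hv, i⟩⟩)⟩)
    (by omega)
  have sc : stabilizer H c = stabilizer H q := by
    refine eq_of_le_index (fun k hk => m.nu2 _ (inv_of_orb m.om.mS k qS) fun x hx a => ?_)
      (ic.trans iq.symm) i0
    have := m3 _ (inv_mem hk) x (eM ▸ mem_filter.2 ⟨hx, a⟩)
    rw [eM] at this
    simpa using (m.om.inv k _ _).2 (mem_filter.1 this).2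
  obtain ⟨f', g1, g2⟩ := exists_eqv sc
  have eg : Eqv H f' c q S' S := ⟨g1, g2, w.mS, m.om.mS⟩
  obtain ⟨N, k1, k2, k3, k4⟩ := eg.img _ _ (w.stab c)
  rw [sc] at k3
  have qN : q ∉ N := fun i => w.irr c ((k4 c cS).1 (eg.base ▸ i))
  have d3 := m.c2.dvd le_rfl k3
  rw [Subgroup.relIndex_self, one_mul] at d3
  have l' := card_le_card (inter_subset_left (s₁ := N)
    (s₂ := S.filter fun v => ¬ adj q v ∧ v ≠ q))
  have z' := card_eq_zero.1 (Nat.eq_zero_of_dvd_of_lt d3 (by omega))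
  have eN : N = S.filter (adj q) := eq_of_subset_of_card_le (fun v hv => mem_filter.2
    ⟨k1 hv, by_contra fun i => notMem_empty v (z' ▸ mem_inter.2 ⟨hv, mem_filter.2
      ⟨k1 hv, i, fun e => qN (e ▸ hv)⟩⟩)⟩) (by omega)
  refine w.glue hc m.om.sym m.om.inv m.om.fix m.om.nb (fun i => m.om.irr o ((m.om.nb o).2 i))
    m.om.oS m.om.dj ef eg (fun v i => iff_of_false (x1 v i) (y1 _ (ef.mem i))) (fun v i => ?_)
    fun v i => ?_
  · rw [← m4 v i, eM, mem_filter, and_iff_right (ef.mem i)]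
  · rw [← k4 v i, eN, mem_filter, and_iff_right (eg.mem i)]

end Cfsg.H7.R3.Q
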