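import Cfsg.Agent.Co3.F3
import Cfsg.Agent.H6.LR.M.Main

/-! The presented group is the McLaughlin group of the Leech lattice. -/

set_option autoImplicit false
set_option maxRecDepth 100000

namespace Cfsg.H6.McL

open Cfsg.H6.Leech Cfsg.Co3U

def sg : List (List ℕ) := [[], [5,4,4,1,5,1,5,3,2,3,1,5,3,1,3,5,1,1,3,3,2,3,5,2,2,5,3,3,3,2,3,2,3,3,2,3,3,1,3,3,3,2,4,1,3,1,4,5,3,2,4,5,4,1,4,4,4,5,3,1,3,5,2,5,3,5,1,4,5,4,5,1,3,5,1,1,5], [5,1,1,5,4,4,2,3,3,3,2,4,2,3,3,1,5,3,1,1,5,3,1,4,5,2,5,1,4,5,1,5,3,3,3,2,3,3,3,3,5,4,4,2,5,1,1,4,5,4,1,4,5,3], [4,1,4,4,5,4,4,2,4,4,4,4,4,5,4,5,3,5,1,5,1,3,3,2,4,2,5,4,5,3,1,3,1,4,1,4,4,4,4,2,4,2,4,4,4], [3,3,3,1,3,1,3,3,3,3,2,3,2,4,2,4,5,3,5,1,3,1,4,4,2,5,2,5,4,5,3,5,3,3,3,3,3,1,3,3,5,3,3,2,3], [2,5,3,2,4,2,5,4,2,5,4,5,3,3,3,3,1,3,1,3,2,4,1,5,1,5,3,1,3,5,3,3,2,3],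 [5,2,3,3,3,3,3,2,5,3,5,1,3,5,4,2,5,4,5,2,4,5,3,3,3,2,3,5,2,4,4,4,5,2,5,4,4,4,2,4,4,1,3,3,3,3,5,1,1,5,4,4,2,3,3,3,2,4,2,3,3,2,5,1,3,3,2,4,5,1,5,2,2,5,1,1,3,3,1,3,5,3,5,4,5,4,4,5,3,1,5,4,4,1,3,2], [5,4,4,1,5,1,5,3,2,3,1,5,3,1,3,5,1,1,3,1,3,5,1,5,4,4,1,4,2,4,4,4,2,4,4,5,4,4,4,4,1,4,4,1,5,2,3,3,3,3,3,2,5,3,5,1,3,5,4,2,5,4,5,2,4,5,3,3,3,2,3,5,2,4,4,4,5,2,5,4,4,4,2,4,4,1,3,3,3,3,5,2,5,4,1,4,1,4,2,5,2,5,1,3,3,5,4,5,3,2,4,2,4], [5,4,4,1,5,1,5,3,2,3,1,5,3,1,3,5,1,1,3,1,3,5,1,5,4,4,1,4,2,4,4,4,2,4,4,5,4,4,4,4,1,4,4,1,1,3,3,2,3,5,2,2,5,3,3,3,2,3,2,3,3,2,3,3,3,3,1,3,1,3,3,3,3,2,3,2,3,5,3,5,4,2,5,4,1,3,1,4,2,5,4,4,2,2,3,5,1,5,4,2,4,4,5,4,4,2,5,1,1,4,5,4,1,4,5,3], [], [], [4,4,4,5,2,5,4,4,4,2,4,4,1,3,3,3,3,1,4,1,4,4,4,4,2,4,2,4,4,4,1,3,3,1,3,5,4,1,3,3,3,3,1,3,3,3,3,5,1,5,3,3,5,1,3,1,3,3,2,3,1,5,4,5,2,3,5,3,5,2,3,2],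 [1,4,1,5,4,5,4,1,5,3,5,2,4,1,4,4,2,4,2,5,4,4,5,2,5,4,4,4,4,2,4,4,4,4,2,3,5,4,2,4,4,2,3,3,3,1,3,1,3,3,3,3,2,3,2,4,4,4,4,2,3,3,1,3,3,3,5,1,5,3,3,3], [1,3,3,2,3,5,2,2,5,3,3,3,2,3,2,3,3,2,3,1,4,1,4,4,4,4,2,4,2,4,4,4,1,5,2,4,4,5,4,1,5,3,2,2,3,2,3,2,4,4,4,5,3,3,5,1,5,4,1,4,4,2,5,1,4,1,4,2,5,4,5,2], [1,5,3,5,1,3,2,3,2,5,1,3,3,2,3,5,2,5,4,4,5,3,3,3,1,4,1,4,1,1,4,5,2,3,5,3,3,1,5,2,3,3,3,1,3,1,3,3,3,3,2,3,2,4,1,4,4,1,4,1,4,4,4,5,1,1,5,4,1,4,4,2], [3,5,3,2,5,3,2,2,5,1,3,1,5,3,5,2,5,4,5,4,5,3,1,4,4,4,2,4,4,4,1,4,2,3,5,4,1,4,4,4,1,4,1,4,4,4,4,2,4,2,4,4,4,4,4,4,5,2,5,4,4,4,2,4,4,1,3,3,3,3,1,5,4,1,4,4,4,5,3,1,5,3,5,1,3,5,4,2,5,4,5,1,4,4,4,4,4,1,5], [5,2,3,3,3,3,3,2,5,3,5,1,3,5,4,2,5,4,5,2,4,5,3,3,3,2,3,5,2,4,4,4,4,2,3,3,1,3,3,3,5,1,5,3,3,3,3,3,3,1,3,1,3,3,3,3,2,3,2,3,3,3,2,3,5,4,1,3,2,3,3,3,1,3,3,3,2,4,5,3,5,3,5,1,5,4,5,2,4,2,5,1,1,4,5,1,4,5,4],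 [5,4,4,1,5,1,5,3,2,3,1,5,3,1,3,5,1,3,3,3,1,3,1,3,3,3,3,2,3,2,4,4,2,4,1,5,2,3,2,5,1,3,5,3,3,5,1,5,3,3,3,3,1,3,5,4,5,4,2,3,5,3,5,2,3,5,3,3,3,2,5,4,5,3]]

theorem good : Good (evS ev sg) 1486034431776358958537884813664031080579328 :=
  ora.good_evS (by decide +kernel)

theorem rels : Rels (evS ev sg) LR.M.R := ora.rels_evS (by decide +kernel)

theorem yvU : yv 530 = Spor.leechU := Subtype.ext (funext fun i => by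
  rw [yv_val (by norm_num)]
  revert i
  decide +kernel)

def W : List (List ℕ) := [[], [5,1,3,3,5], [4,2,4,5], [1,5,4,2], [3,3,3], [3,5,1,5], [1,4,5,4], [4,4,1,4], [3,5,2,2], [2,4,5,4], [1,5,4,1], [1,4,5], [5,2,3,5,4], [1,4,5,3,1,4], [2], [3,5], [3,5,4,2,4,4,5], [1], [1,5,3,3,5,3], [5,4,4,1,5,3], [4,5,3,5,1,5], [5,4,5,2,5,4], [5,4,5,4], [5,3,1,3,5], [5,2,3,3,3], [5,3,5], [4,1,5,4,1], [4,1,5,4,1,4], [5,2,4], [5,3,1], [2,5,2,3,5], [1,5,4,5,3], [5,3,2,4,5], [4,4,2,5,3], [2,5,2], [1,5,3,3,5], [2,3,2,4], [3,5,4,4,5], [5,1,5,3,2], [5,2,5], [3,2,5,1], [4,5,3,3], [1,4,4,5,2], [4,5,3,5,3], [5,3,2,4,5,3], [1,4,2,5,4,4], [5,4,4,2,5,3], [1,4,2,5,4,4,1], [4,5,4], [2,5,4,1], [3,2,5,2,3], [4,2,3,5], [3,5,2,3], [5,3], [5,3,5,2], [4,1,5,3,1], [2,5,3,1], [3,5,3,2],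 [2,5,2,2,5], [3,3,3,1,4], [1,5,2], [4,5,3,3,2], [5,4,5], [4,5,4,4,1], [3,5,3,2,4], [4,5,3,5,1], [3,5,3,2,3], [3,3,3,5,2], [4,4,4,5], [2,3,3,1,4], [3,3,5], [4,1,3], [5,2,3,3,3,2], [2,3,1], [4,1,5,2,2], [5,1,3,2], [3,3], [4,5,3,5], [3,2], [5,1,3,2,4], [4,5,4,4], [2,3,1,4], [5,1,5,3,1], [1,3,3,5], [5,4,4,2,5], [4,4,2,5,3,5,3], [3,5,3,2,3,5], [5,4,4,1,5,3,5], [4,4,4,1,3], [4,1,5,3,2], [1,3,5,3], [1,4,4,2,3], [3,3,2,4,1], [5,1,5,3,1,3], [1,5,4,1,5], [2,5,2,3,5,1], [4,1,5,4,1,1], [3,5,4,4,5,4], [5,2,4,5,1,4], [2,5,4,4,5], [2,4,5,3,5], [3,3,2,4,4], [4,4,4,5,3], [5,1], [2,5,2,3], [1,5,3,3,5,4], [3,5,3,2,3,1], [1,4,1,5,3], [5,1,3,3,3,5,4], [4,1,5,4,2], [4,1,5,4,2,4], [4,1,5,3,2,4], [4,5,3,5,1,1], [3,1], [1,4,4,5,3], [5,4,1,5,2], [4,4,4,4,1], [3,2,5,1,3],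 [1,3,3,5,3], [4,1,3,1,3], [5,3,2,5,4,2], [5,4,4,1,5,4], [5,4,1,3,3,3], [5,2,5,4,5], [3,5,4,1], [3,5,4,1,4], [2,2,5,4,5], [5,1,3,3], [1,4,4], [4,1,1], [5,4,4,5,3,5], [5,3,1,3], [2,3,3,1], [2,3,2,4,4], [1,3,5,4], [1,4,4,5,1], [2,4,4,5,3], [4,4,4,2,3], [4,2,4], [5,3,5,1], [5,4,4,5,3], [5,4,1,3], [5,2,4,4], [4,5,3,1], [5,4,5,2,2], [4,5,4,4,2], [5,1,5,3], [4,5,3,5,2], [2,3,2,4,1], [1,4,1,4], [4,1,1,4], [3,1,3,5,3], [5,2,4,5,1], [2,3,3,5], [5,1,4,4], [4,5,1,4,2,3], [4,5,4,2,4], [4], [5,1,1,5,3,1], [5,2,4,1], [4,5,2,5,4], [3,5,2,3,5], [2,5,2,3,1,3], [1,5,3,3,5,1], [1,5,4,5,3,1], [5,4,4,5,4,4], [1,4,2], [4,2,4,5,4,2], [3,3,1,5,3,2], [3,2,3,1,3], [1,3,5,1], [1,5,4,1,5,1,4], [3,5,3,1,3], [3,3,3,5,1], [2,5,2,3,1], [3,5,4,5], [5,2,3,3], [4,5,3,2], [5,4,4,4],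 [5,3,2,3], [3,5,1,4,1], [2,5,4,4], [3,5,4,5,2,4], [2,4,5,3], [3,3,3,2,4], [1,5,1], [3,3,2,5], [4,5,3,3,1], [3,5,4,2], [5,4,2,3], [3,1,3,5,4], [2,4,4,4,4], [5,2], [1,4,1], [2,3,3,1,4,5], [3,5,4,1,4,5], [2,2,5,4], [4,4,4], [3,2,4,5], [3,3,5,3,3], [5,1,3,3,3], [3,5,2,5], [4,5,1,4,2], [5,1,4], [5,3,2], [2,5,1,3], [2,4,5,4,4], [3,5,3,2,3,2], [3,3,3,1,5], [2,2,5], [2,3,1,4,4], [3,3,2,2], [3,2,4,5,4], [1,5,4,5,3,3], [1,5,4,1,5,3], [5,1,1,5,3,3], [5,3,2,4,5,3,1], [2,5,4,2], [2,5,4,1,5], [1,4,2,4], [4,4], [5,4,4,2,2], [5,4,5,2,5], [3,2,3,2], [2,5,2,3,3], [1,4,4,4,4], [4,5,4,1,4], [3,5,1,4,2], [1,5,4,2,4], [3,1,5,1], [3,3,3,1,4,2], [5,4,5,3,1], [4,4,2,5], [1,4,5,4,1,3], [4,5,4,2,5,4], [3,5,1,3], [5,1,5,3,2,3], [4,5,1,4,4], [5,1,5], [4,1,1,4,4], [5,4,4,1,4],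 [2,5,1], [1,5,4,5], [4,5,1,4,1], [1,5,3], [4,4,2,5,4], [5,2,5,3], [4,5,4,1,1], [4,1,3,1,5], [4,5,4,4,5], [2,3,2,4,2], [3,3,1,5], [3,1,3,5], [3,2,5,2], [5,1,5,3,1,5], [4,4,1,5,4], [1,4,4,4,5,4], [3,2,3,1,5,2], [3,5,4,2,4], [3,5,3,1], [5,1,1,5,1], [3,2,5,3,5], [4,1,5,4], [2,3,2], [3,3,5,3,5], [1,5,4,2,5,3], [1,4,4,4,5], [1,3,5,2], [3,2,3,1], [1,5,4,5,1,5], [4,1,5], [3,2,5,3,5,3], [5,4,4], [1,5,3,3], [4,2,3], [4,4,1,5,1,5], [2,4,4], [1,4,4,2,3,3], [3,5,2], [5,4,1,3,3], [3,5,2,2,5,4], [5,3,1,4], [3,5,1,4], [4,4,4,2], [1,5,4], [1,5,1,5], [4,2,4,5,4], [4,1,3,1], [1,4,1,5,3,3], [5,3,5,2,4], [3,3,3,1,4,5], [4,2,3,5,3], [4,1,1,5], [5,2,5,4], [3,5,2,2,5], [5,4,4,2], [1,5], [1,5,3,2], [5,3,5,1,4], [3,3,2,4], [4,4,1], [2,3,3], [3,3,3,1], [4,5,4,2,5], [3,1,4],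 [1,4,4,4], [4,4,4,5,4], [3,5,2,2,4], [4,5,4,1], [5,4,5,2,5,2], [2,5,2,2], [1,5,4,5,1], [4,5,1,4], [3,5,4,1,4,4], [4,1,5,2], [3,2,3], [3,3,3,5], [5,4,4,4,2], [3,5,4,5,2], [4,1,3,3], [4,1,5,4,1,4,5], [4,2,4,5,1], [3,3,2], [2,3,2,5,2], [5,4,1,5,2,5], [5,3,5,4,1], [3,3,1,5,3], [3,3,1,3], [1,4,4,1], [4,5,2,3], [5,1,5,2], [3,1,5], [5,3,2,4], [3,2,5,1,1], [5,1,1,5], [5,2,5,4,4], [1,4,4,5], [1,5,4,5,4,1], [1,4,2,3], [1,4,5,4,1], [1,4,1,5], [5,2,5,1], [5,4,5,3], [3,5,3], [5,4,5,4,5], [3,3,1], [2,3,1,3], [5,4,4,5,4], [4,5,1], [5,1,1,4], [3,2,3,5,4], [2,5], [4,4,1,5,1], [5,2,3,5,3], [1,3,5], [5,1,5,3,5], [4,1,5,1], [1,3,5,3,3], [5,4,4,1,5], [4,1,3,2], [2,3,3,1,5,3], [5,3,1,3,2], [1,4,4,2], [2,3], [4,1], [5,2,5,3,1], [5,3,5,4], [3,3,3,2], [3,2,3,1,5], [5,3,5,1,3],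 [2,4,5,3,1], [3,5,1], [5,1,5,2,3], [3,3,2,5,3], [5,1,1], [5,3,1,4,4], [3,2,5,2,3,5], [5,1,3,3,5,3], [4,5,1,3], [4,5], [5,2,4,5], [2,3,1,3,2], [1,5,4,1,5,4], [3,5,1,5,4], [5,2,5,3,5], [3,5,2,4], [2,5,3,1,4], [5,1,1,5,3], [5,1,3,3,3,5], [5,3,2,4,5,4], [5,3,2,5,4,5], [4,5,3], [2,5,4,4,1], [2,5,2,3,5,4], [5,4,5,3,5], [1,4], [5,4,1,3,1], [2,4,4,5], [2,5,3], [4,1,5,3,1,3], [3,1,3], [2,5,2,4], [2,3,3,3], [3,2,5], [2,3,3,1,5], [3,5,3,3,2], [1,4,4,1,4], [3,2,4], [4,5,3,2,3], [3], [4,5,4,4,1,4], [4,1,5,3,2,3], [4,2], [2,4,5], [4,4,1,5], [5,4,1], [4,1,5,3], [4,5,4,2], [2,5,4], [3,3,5,3], [3,5,2,2,3], [1,4,1,4,5], [5], [2,4], [3,2,5,3], [2,5,4,2,5], [5,2,3,5], [1,3,3,3], [5,4,4,1], [5,2,5,3,2], [1,5,2,2], [4,2,3,3], [2,4,5,3,3], [1,4,1,3], [2,2,5,4,5,2], [3,5,4],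 [4,4,4,4], [5,2,4,1,3], [4,2,4,5,2], [2,5,4,2,3], [5,4,5,2], [2,3,2,5,2,4], [4,1,1,5,2], [1,5,2,4,4], [1,5,2,4], [5,4,4,1,5,3,3], [1,5,4,2,5], [2,3,2,3], [1,4,5,3], [4,5,2], [3,2,3,5], [4,5,3,1,1], [3,5,4,1,3], [1,5,1,3], [5,3,2,4,4], [2,5,3,1,1], [1,3], [1,5,2,4,2], [4,1,5,2,5], [1,5,4,1,5,1], [4,5,3,5,4], [3,3,1,3,5], [2,4,4,4], [2,2,5,4,4], [5,2,4,4,4], [4,5,4,5], [1,4,5,3,1], [3,3,1,4], [1,5,4,5,4,1,4], [1,4,2,5,4], [3,5,4,4], [3,1,4,2], [3,5,3,3], [3,1,4,5], [2,5,2,5], [5,4,5,1], [1,4,4,1,4,1], [5,4,5,2,2,3], [2,5,2,5,3], [4,4,4,1], [3,5,3,3,3], [5,2,3,5,3,1], [5,4,2,3,3], [1,3,5,4,4], [2,5,3,1,3], [4,5,1,1], [5,1,4,5], [2,3,1,3,1], [1,4,4,2,4], [5,3,2,5,4], [4,5,3,1,3], [3,2,2], [3,5,2,5,4], [4,1,5,4,2,3], [2,3,2,5], [1,3,3,5,4], [5,3,2,5],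 [2,3,3,1,4,4], [5,1,4,4,4], [5,4,2,5,2], [5,4,2], [3,5,4,5,1], [4,1,5,4,4], [4,4,1,3], [4,5,4,4,4], [3,1,4,5,3], [1,4,1,3,5], [1,4,2,5], [1,4,2,3,5], [1,5,4,5,4], [2,3,2,5,1], [2,5,4,1,1], [5,3,5,4,2], [4,4,2], [5,1,3,2,4,1], [3,1,4,1], [1,3,3], [4,5,4,2,5,1], [1,4,5,3,3], [4,5,2,4], [3,5,4,2,4,4], [5,3,2,4,5,1], [1,4,1,5,4], [4,5,2,5], [5,4], [3,3,3,5,1,5], [2,3,1,5,4], [2,3,1,5], [5,4,2,5], [1,5,3,3,5,3,5], [], [2,2], [3,1,5,4], [5,1,3,2,3], [1,4,5,3,1,5], [5,2,3,3,3,5], [5,4,5,4,2], [4,4,2,5,3,5], [1,3,3,5,3,3], [5,4,5,4,1], [1,4,5,3,1,4,1], [5,1,3], [5,4,4,5,3,1], [2,4,5,3,5,2], [5,4,4,5], [5,2,5,3,3], [3,3,2,5,2], [5,4,4,2,5,3,3], [1,3,5,1,3], [3,2,5,1,4], [2,4,5,3,5,1], [5,4,1,5], [5,2,3]]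

theorem hW : allR (fun p => fixB img 6 [0] (nthW W p) && Nat.beq (trF img (nthW W p) 530) p) 1 552 =
    true := by decide +kernel

theorem card_le : Finite Spor.McL ∧ Nat.card Spor.McL ≤ 898128000 := by
  have : Finite Spor.Co3 :=
    Finite.of_injective _ (Subgroup.inclusion_injective (inf_le_left : Spor.Co3 ≤ Co0))
  have h1 := card_fixS_cons Spor.Co3.subtype Spor.leechU []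
  have h2 : yv '' (Finset.Ico 1 553 : Set ℕ) ⊆
      orb Spor.Co3.subtype (fixS Spor.Co3.subtype []) Spor.leechU := by
    rintro _ ⟨p, hp, rfl⟩
    rw [Finset.mem_coe, Finset.mem_Ico] at hp
    have a := allR_spec hW p hp.1 (by omega)
    rw [Bool.and_eq_true, Nat.beq_eq] at a
    refine ⟨⟨_, mem a.1⟩, fun _ h => absurd h List.not_mem_nil, ?_⟩
    have b := a.1
    unfold fixB at b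
    rw [Bool.and_eq_true] at b
    rw [← yvU]
    exact (lab.tr b.1 (by norm_num)).1.trans (congrArg yv a.2)
  have h3 := Set.ncard_le_ncard h2 (orb_finite _ _ _)
  rw [Set.InjOn.ncard_image (fun p hp q hq e => lab.inj p (Finset.mem_Ico.1 hp).2 q
    (Finset.mem_Ico.1 hq).2 e), Set.ncard_coe_finset, Nat.card_Ico] at h3
  have h4 := card_Co3_le
  let j : Spor.McL → fixS Spor.Co3.subtype [Spor.leechU] := fun g => ⟨⟨g.1, g.2.1⟩, fun b hb => by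
    rw [List.mem_singleton.1 hb]; exact g.2.2⟩
  have hj : Function.Injective j := fun a b e =>
    Subtype.ext (congrArg (fun x => x.1.1) e)
  have h5 := Nat.card_le_card_of_injective j hj
  have h6 : Nat.card (fixS Spor.Co3.subtype []) = Nat.card Spor.Co3 := by
    rw [fixS_nil, Subgroup.card_top]
  refine ⟨Finite.of_injective j hj, ?_⟩
  have h7 := Nat.mul_le_mul h3 h5
  omega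

theorem iso : Nonempty (LR.M.Grp ≃* Spor.McL) := by
  obtain ⟨ψ, hψ⟩ := LR.M.lift good rels
  have hw : ∀ w, ψ (evL LR.M.ev w) = evL ev (subst sg w) := fun w => by
    rw [map_evL, ← evL_subst]
    exact evL_congr fun x _ => hψ x
  have h1 : ∀ g, ψ g ∈ Spor.McL := fun g => by
    refine (gen_le (K := Spor.McL.comap ψ) fun w hw' => ?_) (LR.M.hX8.ge trivial)
    have a := List.all_eq_true.mp (by decide +kernel : ([[1], [2], [3], [5], [6], [7], [8]] :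
      List (List ℕ)).all (fun w => fixB img 6 [0] (subst sg w) &&
        fixB img 6 [530] (subst sg w)) = true) w hw'
    rw [Bool.and_eq_true] at a
    rw [Subgroup.mem_comap, hw]
    refine ⟨mem a.1, (Subgroup.inv_mem_iff _).1 ?_⟩
    have := fix a.2 (p := 530) (by simp) (by norm_num)
    rwa [yvU] at this
  have := LR.M.simple
  have := card_le.1
  refine equiv_of_injective (ψ.codRestrict _ h1) (injective_of_simple _ (x := evL LR.M.ev [1])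
    fun e => ?_) (LR.M.main.1 ▸ card_le.2)
  have a : evL ev (subst sg [1]) = 1 := (hw _).symm.trans (congrArg Subtype.val e)
  obtain ⟨b, c⟩ := lab.tr (w := subst sg [1]) (by decide +kernel) (p := 4) (by norm_num)
  rw [a] at b
  exact absurd (Co3U.lab.inj 4 (by norm_num) _ c b) (by decide +kernel)

end Cfsg.H6.McL
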