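import Cfsg.Agent.H6.R3.G

/-! The McLaughlin graph is determined by the stabiliser of a vertex. -/

set_option autoImplicit false

open MulAction Finset

namespace Cfsg.H7.R3.Q

variable {H Ω V : Type*} [Group H] [MulAction H V] [DecidableEq V] [DecidableEq Ω]

theorem isO_smul {adj : V → V → Prop} [DecidableRel adj]
    (inv : ∀ (h : H) u v, adj (h • u) (h • v) ↔ adj u v) {D : Finset V}
    (iD : ∀ (g : H) v, v ∈ D → g • v ∈ D) {p : V} {n : ℕ}
    (h : IsO (stabilizer H p) (D.filter (adj p)) n) (g : H) :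
    IsO (stabilizer H (g • p)) (D.filter (adj (g • p))) n := by
  refine ⟨(card_filter_smul g (fun v hv => ⟨iD _ v hv, iD _ v hv⟩) _ _ (inv g p)).trans h.card,
    fun k hk v hv => mem_filter.2 ⟨iD k v (mem_filter.1 hv).1, ?_⟩, fun x hx => ?_⟩
  · rw [← mem_stabilizer_iff.1 hk, inv]; exact (mem_filter.1 hv).2
  · rw [← smul_inv_smul g x, relIndex_smul]
    refine h.idx _ (mem_filter.2 ⟨iD _ x (mem_filter.1 hx).1, (inv g _ _).1 ?_⟩)
    rw [smul_inv_smul]; exact (mem_filter.1 hx).2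

/-- An automorphism of the neighbourhood graph that normalises the group. -/
structure Tw (H : Type*) [Group H] [MulAction H V] (adj : V → V → Prop) (D : Finset V)
    (α : H ≃* H) (σ : V → V) : Prop where
  mem : ∀ t ∈ D, σ t ∈ D
  inj : ∀ t ∈ D, ∀ u ∈ D, σ t = σ u → t = u
  adj : ∀ t ∈ D, ∀ u ∈ D, adj (σ t) (σ u) ↔ adj t u
  eq : ∀ h, ∀ t ∈ D, σ (α h • t) = h • σ t

/-- What is used of the McLaughlin graph. -/
structure MM (H : Type*) [Group H] [MulAction H V] (adj : V → V → Prop) [DecidableRel adj]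
    (o p q : V) (D S : Finset V) (g : H) : Prop where
  om : OM H adj o p q D S 112 162
  card : Nat.card H = 3265920
  a1 : IsO (stabilizer H p) (D.filter (adj p)) 30
  a2 : IsO (stabilizer H p) (D.filter fun v => ¬ adj p v ∧ v ≠ p) 81
  cl : ∀ t ∈ D, adj p t → (D.filter fun v => adj p v ∧ adj t v).card ≤ 2
  g7 : g ^ 7 = 1
  hemi : ∀ M ⊆ D, (∀ v ∈ M, g • v ∈ M) → M.card = 56 →
    (∀ t ∈ M, 10 ∣ (M.filter (adj t)).card) →
    ∃ α σ, Tw H adj D α σ ∧ ∀ t ∈ D, t ∈ M ↔ adj q (σ t)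
  c2 : IsO (stabilizer H q) (S.filter fun v => ¬ adj q v ∧ v ≠ q) 105
  nu2 : ∀ v ∈ S, (∀ x ∈ D, adj q x → adj v x) → v = q

variable {adj : V → V → Prop} [DecidableRel adj] {o p q : V} {D S : Finset V} {g : H}

theorem partM (E : Finset V) (hE : E ⊆ D) (hp : p ∉ E) : E.card = (E ∩ D.filter (adj p)).card +
    (E ∩ D.filter fun v => ¬ adj p v ∧ v ≠ p).card := by
  rw [← card_filter_add_card_filter_not (s := E) (adj p)]
  congr 2 <;> ext v <;> simp only [mem_filter, mem_inter]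
  · exact ⟨fun a => ⟨a.1, hE a.1, a.2⟩, fun a => ⟨a.1, a.2.2⟩⟩
  · exact ⟨fun a => ⟨a.1, hE a.1, a.2, fun e => hp (e ▸ a.1)⟩, fun a => ⟨a.1, a.2.2.1⟩⟩

set_option synthInstance.maxSize 1024 in
theorem arM : ∀ d < 31, ∀ e < 82, (1 + d + e) ∣ 29160 → ¬ 3 ∣ (1 + d + e) →
    30 ∣ (1 + d + e) * d → 81 ∣ (1 + d + e) * e → e = 0 ∧ (d = 0 ∨ d = 9) := by
  decide +kernel

theorem MM.stepB (m : MM H adj o p q D S g) (K : Subgroup H) (hK : K.index = 112)
    (h3 : ¬ 3 ∣ (stabilizer H p).relIndex K) : K = stabilizer H p := by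
  obtain ⟨T, hT, pT, iT, cT, tT⟩ := exists_orbF K m.om.mD
  have ip := (index_stab m.om.mD).trans m.om.cD
  have i0 : (stabilizer H p).index ≠ 0 := by rw [ip]; norm_num
  have r := relIndex_symm (hK.trans ip.symm) i0
  have iT' := Inv_erase (iT.mono (inf_le_left : K ⊓ stabilizer H p ≤ K)) inf_le_right
  have d1 := m.a1.dvd inf_le_right iT'
  have d2 := m.a2.dvd inf_le_right iT'
  have l1 := m.a1.le (T.erase p)
  have l2 := m.a2.le (T.erase p)
  have s := partM (adj := adj) _ ((erase_subset p T).trans hT) (notMem_erase p T)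
  have cK := K.index_mul_card
  have dK : (stabilizer H p).relIndex K ∣ Nat.card K := Subgroup.index_dvd_card _
  rw [hK, m.card] at cK
  rw [show Nat.card K = 29160 by omega] at dK
  have l' := card_pos.2 ⟨p, pT⟩
  have s' := card_erase_of_mem pT
  rw [r] at d1 d2
  have e : (stabilizer H p).relIndex K = 1 + (T.erase p ∩ D.filter (adj p)).card +
    (T.erase p ∩ D.filter fun v => ¬ adj p v ∧ v ≠ p).card := by omega
  rw [e] at d1 d2 dK h3
  obtain ⟨z, h | h⟩ := arM _ (by omega) _ (by omega) dK h3 d1 d2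
  · exact eq_of_le_index (Subgroup.relIndex_eq_one.1 (by omega)) (hK.trans ip.symm) i0
  have a : ∀ v ∈ T, v ≠ p → adj p v := fun v hv n => by_contra fun i => notMem_empty v
    (card_eq_zero.1 z ▸ mem_inter.2 ⟨mem_erase.2 ⟨n, hv⟩, mem_filter.2 ⟨hT hv, i, n⟩⟩)
  obtain ⟨t, ht⟩ := card_pos.1 (by omega : 0 < (T.erase p).card)
  have c := m.cl t (hT (mem_erase.1 ht).2) (a t (mem_erase.1 ht).2 (mem_erase.1 ht).1)
  obtain ⟨k, hk, rfl⟩ := tT t (mem_erase.1 ht).2
  have c' := card_le_card (s := (T.erase p).erase (k • p))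
    (t := D.filter fun v => adj p v ∧ adj (k • p) v) fun v hv => by
      simp only [mem_erase] at hv
      refine mem_filter.2 ⟨hT hv.2.2, a v hv.2.2 hv.2.1, ?_⟩
      rw [← smul_inv_smul k v, m.om.inv]
      exact a _ (iT _ (inv_mem hk) v hv.2.2) fun e => hv.1 (inv_smul_eq_iff.1 e)
  rw [card_erase_of_mem ht] at c'
  omega

variable [MulAction H Ω] {r : Ω → Ω → Prop} [DecidableRel r] {a b c : Ω} {D' S' : Finset Ω}

theorem MM.lam (m : MM H adj o p q D S g) (w : OM H r a b c D' S' 112 162)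
    (sb : stabilizer H b = stabilizer H p) {f : Ω → V} (ef : Eqv H f b p D' D) :
    (∀ v ∈ D', r b v ↔ adj p (f v)) ∧ (D'.filter (r c)).card = 56 ∧
      (S'.filter (r c)).card = 56 := by
  have bD := (w.mD b).2 (mem_orbit_self b)
  have cS := (w.mS c).2 (mem_orbit_self c)
  obtain ⟨E, e1, e2, e3, e4⟩ := ef.img _ _ (w.stab b)
  have pE : p ∉ E := fun i => w.irr b ((e4 b bD).1 (ef.base ▸ i))
  rw [sb] at e3
  have s := partM (adj := adj) E e1 pE
  have d1 := m.a1.dvd le_rfl e3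
  have d2 := m.a2.dvd le_rfl e3
  have l1 := m.a1.le E
  have l2 := m.a2.le E
  rw [Subgroup.relIndex_self, one_mul] at d1 d2
  have n1 := w.lam b bD
  have n2 := w.rD b bD
  have n3 := w.rS c cS
  have n4 := w.count
  have x : (E ∩ D.filter (adj p)).card = 30 ∧ E.card = 30 := by omega
  have eE : E = D.filter (adj p) := (eq_of_subset_of_card_le (m.a1.sub x.1)
    (by rw [m.a1.card, x.2])).symm
  refine ⟨fun v i => ?_, by omega, by omega⟩
  rw [← e4 v i, eE, mem_filter, and_iff_right (ef.mem i)]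

theorem MM.finish [Fintype Ω] [Fintype V] (hc : Fintype.card Ω = Fintype.card V)
    (m : MM H adj o p q D S g) (w : OM H r a b c D' S' 112 162) (f : Ω → V)
    (fe : ∀ h : H, ∀ v ∈ D', f (h • v) = h • f v) (fi : ∀ u ∈ D', ∀ v ∈ D', f u = f v → u = v)
    (fm : ∀ v ∈ D', f v ∈ D) (fa : ∀ u ∈ D', ∀ v ∈ D', r u v ↔ adj (f u) (f v))
    (fc : ∀ v ∈ D', r c v ↔ adj q (f v)) (x3 : (S'.filter (r c)).card = 56) :
    ∃ e : Ω ≃ V, ∀ u v, r u v ↔ adj (e u) (e v) := by
  have bD := (w.mD b).2 (mem_orbit_self b)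
  obtain ⟨g0, e0⟩ := (m.om.mD _).1 (fm b bD)
  have fb : f (g0⁻¹ • b) = p := by rw [fe _ b bD, ← e0, inv_smul_smul]
  replace w := w.move g0⁻¹ 1
  rw [one_smul] at w
  generalize g0⁻¹ • b = b at w fb
  replace bD := (w.mD b).2 (mem_orbit_self b)
  have ef : Eqv H f b p D' D := ⟨fun h => by rw [fe h b bD, fb],
    fun u hu v hv => fi u ((w.mD u).2 hu) v ((w.mD v).2 hv), w.mD, m.om.mD⟩
  have cS := (w.mS c).2 (mem_orbit_self c)
  have qS := (m.om.mS q).2 (mem_orbit_self q)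
  obtain ⟨-, -, y3⟩ := m.lam (f := id) m.om rfl ⟨fun _ => rfl, Set.injOn_id _, m.om.mD, m.om.mD⟩
  have iq := (index_stab m.om.mS).trans m.om.cS
  have ic := (index_stab w.mS).trans w.cS
  have sc : stabilizer H c = stabilizer H q := by
    refine eq_of_le_index (fun k hk => m.nu2 _ (inv_of_orb m.om.mS k qS) fun x hx i => ?_)
      (ic.trans iq.symm) (by rw [iq]; norm_num)
    obtain ⟨h, rfl⟩ := (m.om.mD x).1 hx
    have j := inv_of_orb w.mD h bD
    have i' : adj q (f (h • b)) := by rwa [ef.eq]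
    have := (fc _ (inv_of_orb w.mD k⁻¹ j)).1 (w.stab c _ (inv_mem hk) _ ((fc _ j).2 i'))
    rw [fe _ _ j, ef.eq] at this
    simpa using (m.om.inv k _ _).2 this
  obtain ⟨f', g1, g2⟩ := exists_eqv sc
  have eg : Eqv H f' c q S' S := ⟨g1, g2, w.mS, m.om.mS⟩
  obtain ⟨N, k1, k2, k3, k4⟩ := eg.img _ _ (w.stab c)
  rw [sc] at k3
  have qN : q ∉ N := fun i => w.irr c ((k4 c cS).1 (eg.base ▸ i))
  have d3 := m.c2.dvd le_rfl k3
  rw [Subgroup.relIndex_self, one_mul] at d3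
  have l' := card_le_card (inter_subset_left (s₁ := N)
    (s₂ := S.filter fun v => ¬ adj q v ∧ v ≠ q))
  have z' := card_eq_zero.1 (Nat.eq_zero_of_dvd_of_lt d3 (by omega))
  have eN : N = S.filter (adj q) := eq_of_subset_of_card_le (fun v hv => mem_filter.2
    ⟨k1 hv, by_contra fun i => notMem_empty v (z' ▸ mem_inter.2 ⟨hv, mem_filter.2
      ⟨k1 hv, i, fun e => qN (e ▸ hv)⟩⟩)⟩) (by omega)
  refine w.glue hc m.om.sym m.om.inv m.om.fix m.om.nb (fun i => m.om.irr o ((m.om.nb o).2 i))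
    m.om.oS m.om.dj ef eg (fun v i => fb ▸ fa b bD v i) fc fun v i => ?_
  rw [← k4 v i, eN, mem_filter, and_iff_right (eg.mem i)]

theorem MM.graph [Fintype Ω] [Fintype V] (hc : Fintype.card Ω = Fintype.card V)
    (m : MM H adj o p q D S g) (w : OM H r a b c D' S' 112 162) :
    ∃ e : Ω ≃ V, ∀ u v, r u v ↔ adj (e u) (e v) := by
  obtain ⟨k, hk⟩ := exists_move 3 b m.om.mD (by rw [m.om.cD]; norm_num)
  obtain ⟨x, hx, hh⟩ := exists_orb 7 (Subgroup.zpowers g) S' (fun h _ _ => inv_of_orb w.mS h)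
    (by rw [w.cS]; norm_num)
  obtain ⟨h, rfl⟩ := (w.mS x).1 hx
  replace w := w.move k h
  beta_reduce at hh
  generalize k • b = b at w hk
  generalize h • c = c at w hh
  have gc : g ∈ stabilizer H c := by
    have d : (stabilizer H c).relIndex (Subgroup.zpowers g) ∣ 7 :=
      (Subgroup.index_dvd_card _).trans (Nat.card_zpowers g ▸ orderOf_dvd_of_pow_eq_one m.g7)
    rcases (Nat.dvd_prime (by norm_num)).1 d with e | e
    · exact Subgroup.relIndex_eq_one.1 e (Subgroup.mem_zpowers g)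
    · exact absurd (e ▸ dvd_rfl) hh
  have bD := (w.mD b).2 (mem_orbit_self b)
  have sb := m.stepB _ ((index_stab w.mD).trans w.cD) hk
  obtain ⟨f, f1, f2⟩ := exists_eqv sb
  have ef : Eqv H f b p D' D := ⟨f1, f2, w.mD, m.om.mD⟩
  obtain ⟨x1, x2, x3⟩ := m.lam w sb ef
  obtain ⟨M, m1, m2, m3, m4⟩ := ef.img _ _ (w.stab c)
  have ic := (index_stab w.mS).trans w.cS
  obtain ⟨α, σ, T, hM⟩ := m.hemi M m1 (m3 g gc) (m2.trans x2) fun t ht => by
    obtain ⟨u, rfl⟩ := (m.om.mD t).1 (m1 ht)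
    beta_reduce at ht ⊢
    have d := (isO_smul m.om.inv (fun g _ => inv_of_orb m.om.mD g) m.a1 u).dvd inf_le_right
      (m3.mono (inf_le_left : stabilizer H c ⊓ _ ≤ _))
    have it := (index_stab (m.om.move u 1).mD).trans m.om.cD
    have j1 := Subgroup.relIndex_mul_index
      (inf_le_right : stabilizer H c ⊓ stabilizer H (u • p) ≤ _)
    have j2 := Subgroup.relIndex_mul_index
      (inf_le_left : stabilizer H c ⊓ stabilizer H (u • p) ≤ _)
    have j3 : (orbit (stabilizer H c) (u • p)).ncard ≤ M.card :=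
      (Set.ncard_le_ncard (t := M) (by rintro _ ⟨k, rfl⟩; exact m3 k k.2 _ ht)
        (finite_toSet _)).trans (Set.ncard_coe_finset _).le
    have j4 : 0 < (orbit (stabilizer H c) (u • p)).ncard :=
      (Set.ncard_pos (Set.toFinite _)).2 ⟨_, mem_orbit_self _⟩
    rw [Subgroup.inf_relIndex_left, ← ncard_orbit, ic] at j2
    rw [it] at j1
    rw [show (stabilizer H c ⊓ stabilizer H (u • p)).relIndex (stabilizer H (u • p)) = 81 by omega,
      show M ∩ D.filter (adj (u • p)) = M.filter (adj (u • p)) from ext fun v => by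
        simp only [mem_inter, mem_filter]
        exact ⟨fun a => ⟨a.1, a.2.2⟩, fun a => ⟨a.1, m1 a.1, a.2⟩⟩] at d
    omega
  refine @MM.finish H Ω V _ _ _ _ adj _ o p q D S g (MulAction.compHom Ω α.toMonoidHom) r _ a b c
    D' S' _ _ hc m (w.comp α) (σ ∘ f) (fun h v i => ?_)
    (fun u i v j e => ef.inj' i j (T.inj _ (ef.mem i) _ (ef.mem j) e))
    (fun v i => T.mem _ (ef.mem i)) (fun u i v j => ?_) (fun v i => ?_) x3
  · show σ (f (α h • v)) = h • σ (f v)
    rw [ef.smul _ i, T.eq _ _ (ef.mem i)]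
  · show _ ↔ adj (σ (f u)) (σ (f v))
    rw [T.adj _ (ef.mem i) _ (ef.mem j)]
    obtain ⟨k, rfl⟩ := (w.mD u).1 i
    beta_reduce
    rw [ef.eq, ← smul_inv_smul k v, w.inv, x1 _ (inv_of_orb w.mD _ j),
      ef.smul k (inv_of_orb w.mD _ j), m.om.inv]
  · rw [← m4 v i, hM _ (ef.mem i)]; rfl

end Cfsg.H7.R3.Q
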