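import Cfsg.Agent.H6.R3.M1
import Cfsg.Agent.H6.R3.M4

/-! Recognition of the McLaughlin group as a rank 3 group. -/

set_option autoImplicit false
set_option maxRecDepth 100000
set_option Elab.async false

open MulAction Finset

namespace Cfsg.H7.R3.Q.Mc

open H6 H6.LR.M

theorem model : ∃ (adj : Fin 275 → Fin 275 → Prop) (_ : DecidableRel adj)
    (D S : Finset (Fin 275)), (∀ (g : Grp) u v, adj (g • u) (g • v) ↔ adj u v) ∧
    Nat.card (Aut adj) ≤ 2 * 898128000 ∧ MM H adj 0 1 211 D S g7 := by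
  have := pretrans hs prim.orb_top
  obtain ⟨adj, dec, D, S, inv, w⟩ := exists_OM (G := Grp) (0 : Fin 275) 1 211 112 162
    (ncard_Ico hs (x := 1) O1 (by norm_num) :) (ncard_Ico hs (x := 211) O2 le_rfl :) (by simp)
    (by norm_num) (by norm_num) (by norm_num) (by simp)
  have hD' : ∀ v, v ∈ D ↔ 1 ≤ v.1 ∧ v.1 < 113 := fun v => by
    rw [w.mD, mem_orbit_iff_orb hs]; exact O1 ▸ Iff.rfl
  have hD : ∀ v, v ∈ D ↔ bit r0 v = true := fun v => (hD' v).trans (bit0 _ v.2).symm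
  have hS : ∀ v, v ∈ S ↔ Nat.ble 113 v = true := fun v => by
    rw [w.mS, mem_orbit_iff_orb hs, Nat.ble_eq]
    exact O2 ▸ ⟨fun a => a.1, fun a => ⟨a, v.2⟩⟩
  have h0 : Row adj 0 r0 := ⟨by norm_num, fun u v e => by
    rw [show u = 0 from Fin.ext e, w.nb, hD]⟩
  have rw' := rows_sound hs hφ inv h0 rows
  have ad : ∀ u v : Fin 275, adj u v ↔ bit (Rw u) v = true := fun u v => (rw' u u.2).2 u v rfl
  have iD := inv_of_orb w.mD
  have iS := inv_of_orb w.mS
  have as : ∀ t, ∀ g ∈ stabilizer H t, ∀ v, adj t (g • v) ↔ adj t v := fun t g hg v => by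
    rw [← w.inv g t v, mem_stabilizer_iff.1 hg]
  have A0 : Nat.card (Aut adj) ≤ 2 * 898128000 :=
    pch ▸ aut_le (fun c hc => (rch c hc).2 ▸ rw' _ (rch c hc).1) kch
  have c1 : (D.filter (adj 1)).card ≤ 30 :=
    (card_eq_cnt _ (fun v => bit r0 v && bit (Rw 1) v) fun v => by
      simp [hD, ad]).le.trans (by decide +kernel)
  have c2 : (D.filter fun v => ¬ adj 1 v ∧ v ≠ 1).card ≤ 81 :=
    (card_eq_cnt _ (fun v => bit r0 v && (!bit (Rw 1) v && !Nat.beq v 1)) fun v => by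
      simp [hD, ad, Fin.ext_iff, ← Bool.not_eq_true]).le.trans (by decide +kernel)
  have c3 : (S.filter fun v => ¬ adj 211 v ∧ v ≠ 211).card ≤ 105 :=
    (card_eq_cnt _ (fun v => Nat.ble 113 v && (!bit (Rw 211) v && !Nat.beq v 211)) fun v => by
      simp [hS, ad, Fin.ext_iff, ← Bool.not_eq_true]).le.trans (by decide +kernel)
  have o1 := orbGe_le hs (o := 0) (p := 1) (x := 8) (og hφ (by decide) oa1)
  have o2 := orbGe_le hs (o := 0) (p := 1) (x := 2) (og hφ (by decide) oa2)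
  have o3 := orbGe_le hs (o := 0) (p := 211) (x := 113) (og hφ (by decide) oc)
  have A1 : IsO (stabilizer H (1 : Fin 275)) (D.filter (adj 1)) 30 :=
    (isO_of (fun g hg v hv => mem_filter.2 ⟨iD g (mem_filter.1 hv).1,
      (as 1 g hg v).2 (mem_filter.1 hv).2⟩)
      (mem_filter.2 ⟨(hD _).2 (by decide +kernel), (ad _ _).2 (by decide +kernel)⟩) c1 o1).1
  have A2 : IsO (stabilizer H (1 : Fin 275)) (D.filter fun v => ¬ adj 1 v ∧ v ≠ 1) 81 :=
    (isO_of (fun g hg v hv => mem_filter.2 ⟨iD g (mem_filter.1 hv).1,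
      (as 1 g hg v).not.2 (mem_filter.1 hv).2.1, fun e => (mem_filter.1 hv).2.2
        (MulAction.injective g (e.trans hg.symm))⟩)
      (mem_filter.2 ⟨(hD _).2 (by decide +kernel), (ad _ _).not.2 (by decide +kernel), by decide⟩)
      c2 o2).1
  have A3 : IsO (stabilizer H (211 : Fin 275)) (S.filter fun v => ¬ adj 211 v ∧ v ≠ 211) 105 :=
    (isO_of (fun g hg v hv => mem_filter.2 ⟨iS g (mem_filter.1 hv).1,
      (as 211 g hg v).not.2 (mem_filter.1 hv).2.1, fun e => (mem_filter.1 hv).2.2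
        (MulAction.injective g (e.trans hg.symm))⟩)
      (mem_filter.2 ⟨(hS _).2 (by decide), (ad _ _).not.2 (by decide +kernel), by decide⟩) c3 o3).1
  have cl : ∀ t ∈ D, adj 1 t → (D.filter fun v => adj 1 v ∧ adj t v).card ≤ 2 := fun t ht a =>
    (card_eq_cnt _ (fun v => bit r0 v && (bit (Rw 1) v && bit (Rw t) v)) fun v => by
      simp [hD, ad]).le.trans ((by decide +kernel : ∀ t < 113, 1 ≤ t → bit (Rw 1) t = true →
        cnt (fun v => bit r0 v && (bit (Rw 1) v && bit (Rw t) v)) 275 ≤ 2) _ ((hD' t).1 ht).2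
        ((hD' t).1 ht).1 ((ad 1 t).1 a))
  have nu : ∀ v ∈ S, (∀ x ∈ D, adj 211 x → adj v x) → v = 211 := fun v hv h => by
    refine Fin.ext ((by decide +kernel : ∀ v < 275, Nat.ble 113 v = true → (∀ x < 275,
      bit r0 x = true → bit (Rw 211) x = true → bit (Rw v) x = true) → v = 211) _ v.2
      ((hS v).1 hv) fun x hx a b => ?_)
    exact (ad v ⟨x, hx⟩).1 (h _ ((hD _).2 a) ((ad 211 ⟨x, hx⟩).2 b))
  exact ⟨adj, dec, D, S, inv, A0, w, cardH, A1, A2, cl, g7_pow, hemi ad hD', A3, nu⟩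

theorem s1667 {Ω : Type*} [Fintype Ω] [DecidableEq Ω] (hΩ : Fintype.card Ω = 275)
    (G : Subgroup (Equiv.Perm Ω)) [IsPretransitive G Ω] (a : Ω) (K : Type) [Field K] [Fintype K]
    (hK : Fintype.card K = 9) (e : stabilizer G a ≃* PSU 4 K 3) (b c : Ω)
    (hb : (orbit (stabilizer G a) b).ncard = 112) (hc : (orbit (stabilizer G a) c).ncard = 162) :
    Spor.IsoMcL G := by
  obtain ⟨adj, _, D, S, inv, hA, m⟩ := model
  obtain ⟨r, _, D', S', inv', w⟩ := exists_OM a b c 112 162 hb hc hΩ (by norm_num) (by norm_num)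
    (by norm_num) (by rw [hΩ]; norm_num)
  obtain ⟨e1⟩ := iso_psu
  obtain ⟨e2⟩ := McL.iso
  let θ := e1.symm.trans ((H3.centerQuotCongr (H3.suCongr
    (FiniteField.ringEquivOfCardEq (card_F9.trans hK.symm)) 4 3)).trans e.symm)
  let _ := MulAction.compHom Ω θ.toMonoidHom
  obtain ⟨f, hf⟩ := m.graph (by simpa using hΩ) (w.comp θ)
  have := simple
  have := faithful hs lb.2 main.2.1
  refine (iso_of_aut' adj inv (main.1 ▸ hA) (by rw [main.1]; norm_num) G r
    (fun g hg => inv' ⟨g, hg⟩) f hf ?_).map (·.trans e2)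
  have i := (stabilizer G a).index_mul_card
  rw [index_stabilizer_of_transitive, Nat.card_eq_fintype_card, hΩ,
    ← Nat.card_congr θ.toEquiv, m.card] at i
  rw [← i, main.1]

end Cfsg.H7.R3.Q.Mc
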